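import Mathlib
import Cfsg.Agent.Lib.MonOrd.Baby

/-!
# The operators commuting with the centraliser of a short involution (helper18)
-/

set_option autoImplicit false
set_option linter.unusedSectionVars false

namespace H18.NP

open Cfsg Finset H16 H95 H95.Gr H95.Maj
open Matrix hiding one
open scoped Kronecker

/-- commuting with the centraliser -/
def Cm (S : BB ℝ →ₗ[ℝ] BB ℝ) : Prop := ∀ c ∈ HH, ∀ v, S (c.1 v) = c.1 (S v)

theorem t0_HH : t0 ∈ HH := self_mem_cent t0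

theorem tt (v : BB ℝ) : t0.1 (t0.1 v) = v := ix_t0.ax.invol v

theorem fix_a0 {c : GG} (hc : c ∈ HH) : c.1 a0 = a0 := ix_t0.av_comm (mem_cent_iff.1 hc)

theorem bl_a0_fix {c : GG} (hc : c ∈ HH) (v : BB ℝ) : bl a0 (c.1 v) = bl a0 v := by
  rw [← Aut_bl c a0 v, fix_a0 hc]

theorem z_i0 (C : Sy ℝ) : zA.1 (i0 C) = i0 C := by rw [zA_apply]; simp [i0_apply]

theorem z_i1 (f : RR → ℝ) : zA.1 (i1 f) = i1 f := by rw [zA_apply]; simp [i1_apply]

theorem odd_zero {v : BB ℝ} (h : zA.1 v = v) : v.2.2 = 0 :=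
  eq_zero_of_eq_neg (F := ℝ) (by rw [zA_apply] at h; exact (congrArg (·.2.2) h).symm)

theorem Cm.zero {S : BB ℝ →ₗ[ℝ] BB ℝ} (hc : Cm S) (ht : ∀ v, t0.1 (S v) = S v)
    (h1 : ∀ v, bl one (S v) = 0) (ha : ∀ v, bl a0 (S v) = 0) (h2 : M2 S = 0) : S = 0 := by
  have hz := hc _ z_mem
  have k : zA ∈ fixIm S := fun v => by
    rw [← hz]
    conv => congr <;> rw [eq_sum3 v]
    simp only [map_add, z_i0, z_i1, hz, M2_odd hz, h2, zero_mulVec, map_zero]
  refine LinearMap.ext fun v => amb.eq_zero ?_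
  obtain ⟨α, β, e⟩ := fix_HH (v := S v) fun c h => HH_le (K := fixIm S)
    (fun c h k => cj_mem_fixIm (hc c h)) k ht h v
  conv_lhs => enter [1, 2]; rw [e]
  simp [h1, ha]

theorem gd_one {k : ℝ} {P : BB ℝ →ₗ[ℝ] BB ℝ} (h : Gd k P) (v : BB ℝ) : bl one (P v) = 0 := by
  rw [← h.sa, h.one, map_zero, LinearMap.zero_apply]

theorem gd_a0 {k : ℝ} (hk : k = 0 ∨ k = 1 / 4) {P : BB ℝ →ₗ[ℝ] BB ℝ} (h : Gd k P) (v : BB ℝ) :
    bl a0 (P v) = 0 :=
  amb.eigen ix_t0.ax.idem (by rcases hk with rfl | rfl <;> norm_num) (h.eig v)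

theorem gd_form {k : ℝ} (hk : k = 0 ∨ k = 1 / 4) {P : BB ℝ →ₗ[ℝ] BB ℝ} (h : Gd k P) (h0 : P ≠ 0) :
    ∃ β : ℝ, β ≠ 0 ∧ M2 P = β • (1 + hm r0.1) ⊗ₖ (Pm H16.vU + (128 * k - 32) • (1 : M24F ℝ)) := by
  obtain ⟨β, e⟩ := h.form hk
  exact ⟨β, fun f => h0 (Cm.zero h.comm (h.fix hk) (gd_one h) (gd_a0 hk h) (by rw [e, f, zero_smul])), e⟩

theorem Cm.plus {S : BB ℝ →ₗ[ℝ] BB ℝ} (hc : Cm S) (ht : ∀ v, t0.1 (S v) = S v)
    (h1 : ∀ v, bl one (S v) = 0) (ha : ∀ v, bl a0 (S v) = 0) : ∃ β γ : ℝ, S = β • P4 + γ • P0 := by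
  obtain ⟨a, b, e⟩ := odd_form hc ht
  obtain ⟨p, hp, e4⟩ := gd_form (Or.inr rfl) good_P4 fun f => by
    have := trace_P4; rw [f, map_zero] at this; norm_num at this
  obtain ⟨q, hq, e0⟩ := gd_form (Or.inl rfl) good_P0 fun f => by
    have := trace_P0; rw [f, map_zero] at this; norm_num at this
  refine ⟨(b + a / 32) / p, -a / 32 / q, sub_eq_zero.1 (Cm.zero (fun c h v => ?_) (fun v => ?_)
    (fun v => ?_) (fun v => ?_) ?_)⟩
  · simp [hc c h, good_P4.comm c h, good_P0.comm c h]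
  · simp [ht, good_P4.fix (Or.inr rfl), good_P0.fix (Or.inl rfl)]
  · simp [h1, gd_one good_P4, gd_one good_P0]
  · simp [ha, gd_a0 (Or.inr rfl) good_P4, gd_a0 (Or.inl rfl) good_P0]
  · have : ∀ x y : ℝ, M2 (S - (x • P4 + y • P0)) = M2 S - (x • M2 P4 + y • M2 P0) := fun x y =>
      matrix_ext_dot fun p q => by simp [M2_mulVec, sub_mulVec, add_mulVec, smul_mulVec]
    rw [this, e, e4, e0, smul_smul, smul_smul, div_mul_cancel₀ _ hp, div_mul_cancel₀ _ hq,
      ← kronecker_smul, ← kronecker_smul, ← kronecker_add, sub_eq_zero]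
    congr 1
    module

theorem Cm.kill {S : BB ℝ →ₗ[ℝ] BB ℝ} (hc : Cm S) (ht : ∀ v, t0.1 (S v) = -S v) {v : BB ℝ}
    (h : t0.1 v = v) : S v = 0 := by
  have := hc _ t0_HH v
  rw [h, ht] at this
  exact eq_zero_of_eq_neg (F := ℝ) this

theorem Cm.zero' {S : BB ℝ →ₗ[ℝ] BB ℝ} (hc : Cm S) (ht : ∀ v, t0.1 (S v) = -S v)
    (hz : ∀ v, zA.1 (S v) = -S v) : S = 0 := by
  let K : Subgroup GG :=
    { carrier := {g | (∀ v, g.1 (S v) = S v) ∨ ∀ v, g.1 (S v) = -S v}
      one_mem' := Or.inl fun _ => rfl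
      mul_mem' := by
        rintro a b (ha | ha) (hb | hb)
        · exact Or.inl fun v => (congrArg a.1 (hb v)).trans (ha v)
        · exact Or.inr fun v => (congrArg a.1 (hb v)).trans (by rw [map_neg, ha])
        · exact Or.inr fun v => (congrArg a.1 (hb v)).trans (ha v)
        · exact Or.inl fun v => (congrArg a.1 (hb v)).trans (by rw [map_neg, ha, neg_neg])
      inv_mem' := by
        rintro a (ha | ha)
        · exact Or.inl fun v => a.1.injective ((inv_apply a _).trans (ha v).symm)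
        · exact Or.inr fun v => a.1.injective ((inv_apply a _).trans (by rw [map_neg, ha, neg_neg])) }
  have k : ∀ c ∈ HH, ∀ (g : GG) v, (cj c g).1 (S (c.1 v)) = c.1 (g.1 (S v)) := fun c h g v => by
    rw [hc c h]
    change c.1 (g.1 (c.1.symm (c.1 _))) = _
    rw [LinearEquiv.symm_apply_apply]
  have h1 : HH ≤ K := HH_le (fun c h g hg => hg.imp
    (fun e v => by obtain ⟨v, rfl⟩ := c.1.surjective v; rw [k c h, e, hc c h])
    fun e v => by obtain ⟨v, rfl⟩ := c.1.surjective v; rw [k c h, e, hc c h, map_neg])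
    (Or.inr hz) (Or.inr ht)
  obtain ⟨x, y, hx, hy, e⟩ := exists_sq
  refine LinearMap.ext fun v => eq_zero_of_eq_neg (F := ℝ) ?_
  rw [← ht, ← e, pow_two]
  change _ = (x * y).1 ((x * y).1 (S v))
  rcases h1 (mul_mem hx.mem hy.mem) with f | f <;> simp only [f, map_neg, neg_neg]

/-- the basis vector of a short class -/
noncomputable def X (u : RR) : BB ℝ := i1 (Pi.single u 1)

theorem qa_X (s : ZMod 2) (e : EE) (u : RR) :
    (qa s e : GG).1 (X u) = (sg (e.2 u.1.1 + u.1.2 e.1) : ℝ) • X u := by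
  rw [qa_apply]
  refine Prod.ext (by simp [X, i1_apply]) (Prod.ext (funext fun w => ?_) (by simp [X, i1_apply]))
  by_cases h : w = u <;> simp [X, i1_apply, h]

theorem act_X (x : Ch ℝ) (u : RR) : (Ch.toAut x).1 (X u) = (sg (x.ka u.1) : ℝ) • X (gr x.g u) := by
  rw [Ch.toAut_apply]
  refine Prod.ext (Subtype.ext ?_) (Prod.ext (funext fun w => ?_) ?_)
  · simp [Ch.act0, X, i1_apply]
  · obtain ⟨w, rfl⟩ := (gr x.g).surjective w
    rw [Ch.act1']
    by_cases h : w = u <;> simp [X, i1_apply, Pi.single_apply, h]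
  · simp [Ch.act2, X, i1_apply]

theorem Cm.eig {S : BB ℝ →ₗ[ℝ] BB ℝ} (hc : Cm S) (ht : ∀ v, t0.1 (S v) = -S v) (u : RR) :
    S (X u) = (S (X u)).2.1 u • X u := by
  obtain ⟨h0, h1, -⟩ := neg_iff.1 (ht (X u))
  have h2 : (S (X u)).2.2 = 0 := odd_zero (by rw [← hc _ z_mem, X, z_i1])
  refine Prod.ext (h0.trans (by simp [X, i1_apply])) (Prod.ext (funext fun w => ?_)
    (h2.trans (by simp [X, i1_apply])))
  by_cases h : w = u
  · simp [X, i1_apply, h]
  rw [show ((S (X u)).2.1 u • X u).2.1 w = 0 by simp [X, i1_apply, h]]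
  by_contra h3
  have key : u.1 + w.1 = 0 ∨ u.1 + w.1 = r0.1 := by
    rcases es_QQ.mem_of_centralizes t0_mem t0_sq (qa_mem 0 (u.1 + w.1)) (fun a ha e => by
      obtain ⟨s, a, rfl⟩ := mem_QQ.1 ha
      have := congrArg (·.2.1 w) (hc _ (mem_cent_iff.2 e) (X u))
      simp only [qa_X, map_smul, qa_apply s a (S _), Prod.smul_snd, Prod.smul_fst, Pi.smul_apply,
        smul_eq_mul] at this
      have h4 := sg_inj (F := ℝ) (mul_right_cancel₀ h3 this)
      rw [qa_mul, qa_mul, add_comm a, add_comm s, qa_inj, and_iff_left rfl, add_right_inj]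
      simp only [Prod.fst_add, Prod.snd_add, map_add, LinearMap.add_apply]
      revert h4
      generalize a.2 u.1.1 = p, u.1.2 a.1 = q, a.2 w.1.1 = p', w.1.2 a.1 = q'
      revert p q p' q'
      decide) with e | e | e | e
    · exact Or.inl (qa_inj.1 (e.trans qa_zero.symm)).2
    · exact Or.inl (qa_inj.1 (e.trans zA_eq)).2
    · exact Or.inr (qa_inj.1 e).2
    · rw [← es_QQ.central _ t0_mem, t0, qa_mul_z] at e
      exact Or.inr (qa_inj.1 e).2
  rcases key with e | e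
  · exact h (Subtype.ext (v2_add_eq.1 e).symm)
  · have := dd_of_sum (r := r0) (s := u) (u := w) (by rw [add_assoc, e, vec2_add_self])
    exact h3 (h1 w (by unfold Ev; omega))

/-- twice the projection to the negated space -/
noncomputable def Pn : BB ℝ →ₗ[ℝ] BB ℝ := LinearMap.id - t0.1.toLinearMap

theorem Pn_apply (v : BB ℝ) : Pn v = v - t0.1 v := rfl

theorem Cm.minus {S : BB ℝ →ₗ[ℝ] BB ℝ} (hc : Cm S) (ht : ∀ v, t0.1 (S v) = -S v) :
    ∃ δ : ℝ, S = δ • Pn := by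
  obtain ⟨u, hu⟩ := exists_odd r0
  obtain ⟨l, hl⟩ : ∃ l : ℝ, S (X u) = l • X u := ⟨_, hc.eig ht u⟩
  have h1 : ∀ w, ¬Ev r0 w → S (X w) = l • X w := fun w hw => by
    obtain ⟨g, a, b⟩ := exists_gr ((odd_iff.1 hu).trans (odd_iff.1 hw).symm)
    obtain ⟨x, rfl, hx⟩ := exists_lift_HH a
    have := hc _ hx (X u)
    rw [hl, map_smul, act_X, b, map_smul, smul_comm] at this
    exact smul_right_injective _ (sg_ne_zero _) this
  have c1 : Cm (S - (l / 2) • Pn) := fun c h v => by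
    simp [hc c h, comm_t0 h, Pn_apply]
  have c2 : ∀ v, t0.1 ((S - (l / 2) • Pn) v) =
      -(S - (l / 2) • Pn) v := fun v => by
    simp only [LinearMap.sub_apply, LinearMap.smul_apply, Pn_apply, map_sub, map_smul, ht, tt]
    module
  refine ⟨l / 2, sub_eq_zero.1 (c1.zero' c2 ?_)⟩
  have c3 : ∀ w, (S - (l / 2) • Pn) (X w) = 0 := fun w => by
    rcases sg_polar (r := r0) (u := w) with ⟨h, e⟩ | ⟨h, e⟩
    · exact c1.kill c2 (by rw [t0, qa_X, e, one_smul])
    · simp only [LinearMap.sub_apply, LinearMap.smul_apply, Pn_apply, h1 w h]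
      rw [t0, qa_X, e]
      module
  generalize S - (l / 2) • Pn = T at c1 c2 c3
  intro v
  have c4 : T (i0 v.1) = 0 := c1.kill c2 (fix_iff.2 ⟨fun _ _ => rfl, mulVec_zero _⟩)
  have c5 : T (i1 v.2.1) = 0 := by
    rw [← Finset.univ_sum_single v.2.1, map_sum, map_sum]
    refine sum_eq_zero fun w _ => ?_
    rw [← mul_one (v.2.1 w), ← smul_eq_mul, Pi.single_smul, map_smul, map_smul]
    exact smul_eq_zero_of_right _ (c3 w)
  rw [eq_sum3 v, map_add T, map_add T, c4, c5, zero_add, zero_add, M2_odd (c1 _ z_mem), zA_apply]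
  simp [i2_apply]

/-- the shape of the operators -/
def Sh (y : GG) (S : BB ℝ →ₗ[ℝ] BB ℝ) (c₁ c₂ c₃ f₁ f₂ : ℝ) : Prop := ∀ v, ∃ h : ℝ,
  S v = c₁ • gmul (av y) v + c₂ • v + c₃ • y.1 v + (f₁ * bl (av y) v + f₂ * bl one v) • av y + h • one

theorem Cm.shape {S : BB ℝ →ₗ[ℝ] BB ℝ} (hc : Cm S) (h0 : S one = 0) (h1 : ∀ v, bl one (S v) = 0) :
    SA S ∧ ∃ c₁ c₂ c₃ f₁ f₂, Sh t0 S c₁ c₂ c₃ f₁ f₂ := by
  obtain ⟨u, hu⟩ := (bl.toDual bl_nd).surjective ((bl a0).comp S)
  have h2 : ∀ v, bl u v = bl a0 (S v) := fun v => congr($hu v)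
  obtain ⟨p, q, rfl⟩ := fix_HH (v := u) fun c h => bl_ext fun v => by
    obtain ⟨v, rfl⟩ := c.1.surjective v
    rw [Aut_bl, h2, h2, hc c h, bl_a0_fix h]
  have h3 := h2 one
  simp only [h0, map_add, map_smul, LinearMap.add_apply, LinearMap.smul_apply, bl_one_one,
    ix_t0.ax.one, smul_eq_mul, map_zero] at h2 h3
  obtain rfl : q = -48 * p := by linarith
  obtain ⟨δ, e1⟩ := Cm.minus (S := S - t0.1.toLinearMap ∘ₗ S) (fun c h v => by
    simp [hc c h, comm_t0 h]) fun v => by simp [tt]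
  obtain ⟨β, γ, e2⟩ := Cm.plus (S := S + t0.1.toLinearMap ∘ₗ S +
      (2 * p / 47) • (bl (one - (48 : ℝ) • a0)).smulRight (one - (48 : ℝ) • a0))
    (fun c h v => by simp [hc c h, comm_t0 h, bl_one_fix, bl_a0_fix h, fix_a0 h, c.2.1])
    (fun v => by
      simp only [LinearMap.add_apply, LinearMap.comp_apply, LinearEquiv.coe_coe, LinearMap.smul_apply,
        LinearMap.smulRight_apply, map_add, map_smul, map_sub, tt, t0.2.1, fix_a0 t0_HH]
      rw [add_comm (S v)])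
    (fun v => by simp [h1, bl_one_fix, bl_one_one, bl_one_a0])
    (fun v => by
      simp only [LinearMap.add_apply, LinearMap.comp_apply, LinearEquiv.coe_coe, LinearMap.smul_apply,
        LinearMap.smulRight_apply, map_add, map_smul, map_sub, LinearMap.sub_apply, bl_a0_fix t0_HH,
        ← h2, ix_t0.ax.one, ix_t0.ax.norm, smul_eq_mul]
      ring)
  have e3 : ∀ v, S v = (β / 2) • P4 v + (γ / 2) • P0 v + (δ / 2) • (v - t0.1 v) -
      (p / 47 * (bl one v - 48 * bl a0 v)) • (one - (48 : ℝ) • a0) := fun v => by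
    have a := congr($e1 v)
    have b := congr($e2 v)
    simp only [LinearMap.add_apply, LinearMap.comp_apply, LinearEquiv.coe_coe, LinearMap.smul_apply,
      LinearMap.smulRight_apply, map_smul, map_sub, LinearMap.sub_apply, Pn_apply,
      smul_eq_mul] at a b
    linear_combination (norm := module) (1 / 2 : ℝ) • a + (1 / 2 : ℝ) • b
  refine ⟨fun u v => ?_, 2 * β - 2 * γ, -β / 32 + γ / 4 + γ / 32 + δ / 2,
    β / 32 + γ / 4 - γ / 32 - δ / 2, -2 * β + 3 / 2 * γ - γ / 94 - 48 * 48 * p / 47,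
    γ / 94 + 48 * p / 47, fun v => ⟨-γ / 94 * (bl one v - bl a0 v) -
      p / 47 * (bl one v - 48 * bl a0 v), ?_⟩⟩
  · have := ix_t0.ax.map_B u (t0.1 v)
    rw [tt] at this
    simp only [e3, map_add, map_sub, map_smul, LinearMap.add_apply, LinearMap.sub_apply,
      LinearMap.smul_apply, good_P4.sa u, good_P0.sa u, this, bl_comm u one, bl_comm u a0, smul_eq_mul]
    ring
  · rw [e3, P0_apply, P4_apply]
    module

end H18.NP
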