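import Cfsg.Agent.Lib.MonNP.Comm

/-!
# The invariant product on the space of dimension 196883 is unique (helper18)
-/

set_option autoImplicit false
set_option linter.unusedSectionVars false

namespace H18.NP

open Cfsg Finset H16 H95 H95.Gr H95.Maj
open Matrix hiding one

theorem bl_one_P1 (v : BB ℝ) : bl one (P1 v) = 0 := by
  simp only [P1_apply, map_sub, map_smul, bl_one_one, smul_eq_mul]; ring

theorem P1_of {v : BB ℝ} (h : bl one v = 0) : P1 v = v := by simp [P1_apply, h]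

theorem P1_one : P1 one = 0 := by simp [P1_apply, bl_one_one]

theorem P1_comm (c : GG) (v : BB ℝ) : P1 (c.1 v) = c.1 (P1 v) := by
  simp [P1_apply, bl_one_fix, c.2.1]

theorem irr (W : Submodule ℝ (BB ℝ)) (hW : ∀ c : GG, ∀ v ∈ W, c.1 v ∈ W)
    (h1 : ∀ v ∈ W, bl one v = 0) : W = ⊥ ∨ ∀ v, P1 v ∈ W := by
  have hr : bl.IsRefl := fun u v h => (bl_comm _ _).trans h
  have hc : IsCompl W (bl.orthogonal W) := bl.isCompl_orthogonal_of_restrict_nondegenerate hr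
    ⟨fun u h => Subtype.ext (amb.eq_zero (h u)), fun u h => Subtype.ext (amb.eq_zero (h u))⟩
  obtain ⟨S, s1, s2, s3⟩ : ∃ S : BB ℝ →ₗ[ℝ] BB ℝ, (∀ v, S v ∈ W) ∧ (∀ v ∈ W, S v = v) ∧
      ∀ v ∈ bl.orthogonal W, S v = 0 :=
    ⟨W.subtype ∘ₗ W.projectionOnto _ hc, fun v => Subtype.coe_prop _, fun v h => congrArg Subtype.val
      (Submodule.projectionOnto_apply_left hc ⟨v, h⟩), fun v h => congrArg Subtype.val
      (Submodule.projectionOnto_apply_right hc ⟨v, h⟩)⟩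
  have dec : ∀ v, ∃ a ∈ W, ∃ b ∈ bl.orthogonal W, a + b = v := fun v =>
    Submodule.mem_sup.1 (hc.sup_eq_top.ge Submodule.mem_top)
  obtain ⟨κ, e⟩ := schur_G (S := S) (fun u v => by
      obtain ⟨a, ha, b, hb, rfl⟩ := dec u
      obtain ⟨a', ha', b', hb', rfl⟩ := dec v
      have h2 : bl a b' = 0 := hb' a ha
      have h3 : bl b a' = 0 := (bl_comm _ _).trans (hb a' ha')
      simp [s2 a ha, s2 a' ha', s3 b hb, s3 b' hb', h2, h3])
    (fun c v => by
      obtain ⟨a, ha, b, hb, rfl⟩ := dec v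
      have : c.1 b ∈ bl.orthogonal W := fun w hw => by
        have := hb _ (hW c⁻¹ w hw)
        rw [← this, ← Aut_bl c (c⁻¹.1 w), inv_apply]
      rw [map_add, map_add, map_add, s2 a ha, s3 b hb, s2 _ (hW c a ha), s3 _ this, add_zero, add_zero])
    (s3 _ fun w hw => (bl_comm _ _).trans (h1 w hw))
  by_cases h0 : κ = 0
  · exact Or.inl (W.eq_bot_iff.2 fun v hv => by rw [← s2 v hv, e, h0, zero_smul, LinearMap.zero_apply])
  · exact Or.inr fun v => (W.smul_mem_iff h0).1 (by rw [← LinearMap.smul_apply, ← e]; exact s1 v)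

theorem P1_a0 : P1 a0 ≠ 0 := fun e => by
  have := congrArg (bl a0) e
  rw [P1_apply, map_sub, map_smul, ix_t0.ax.norm, ix_t0.ax.one, bl_one_a0, map_zero] at this
  norm_num at this

theorem span_ax (W : Submodule ℝ (BB ℝ)) (hW : ∀ c : GG, ∀ v ∈ W, c.1 v ∈ W) (h1 : one ∈ W)
    (h2 : a0 ∈ W) (v : BB ℝ) : v ∈ W := by
  have := (irr (W ⊓ LinearMap.ker (bl one)) (fun c v h => ⟨hW c v h.1, (bl_one_fix c v).trans h.2⟩)
    fun v h => h.2).resolve_left fun e => P1_a0 (e.le (⟨by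
      rw [P1_apply]; exact W.sub_mem h2 (W.smul_mem _ h1), bl_one_P1 _⟩ :
        P1 a0 ∈ W ⊓ LinearMap.ker (bl one)))
  have h3 := (this v).1
  rw [P1_apply] at h3
  exact (W.sub_mem_iff_left (W.smul_mem _ h1)).1 h3

/-- invariant products on the orthogonal complement of the identity -/
structure Eqv (M : BB ℝ →ₗ[ℝ] BB ℝ →ₗ[ℝ] BB ℝ) : Prop where
  map : ∀ (c : GG) u v, M (c.1 u) (c.1 v) = c.1 (M u v)
  left : ∀ v, M one v = 0
  right : ∀ v, M v one = 0
  out : ∀ u v, bl one (M u v) = 0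

namespace Eqv

variable {M : BB ℝ →ₗ[ℝ] BB ℝ →ₗ[ℝ] BB ℝ} (h : Eqv M)
include h

theorem flip : Eqv M.flip := ⟨fun c u v => h.map c v u, h.right, h.left, fun u v => h.out v u⟩

theorem shape : SA (M a0) ∧ ∃ c₁ c₂ c₃ f₁ f₂, Sh t0 (M a0) c₁ c₂ c₃ f₁ f₂ :=
  Cm.shape (fun c hc v => by rw [← h.map, fix_a0 hc]) (h.right _) (h.out _)

theorem sa (w : BB ℝ) : SA (M w) :=
  span_ax
    { carrier := {w | SA (M w)}
      zero_mem' := fun u v => by simp
      add_mem' := fun ha hb u v => by simp [ha u, hb u]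
      smul_mem' := fun c a ha u v => by simp [ha u] }
    (fun c w hw u v => by
      obtain ⟨u, rfl⟩ := c.1.surjective u
      obtain ⟨v, rfl⟩ := c.1.surjective v
      rw [h.map, h.map, Aut_bl, Aut_bl, hw u])
    (fun u v => by simp [h.left]) h.shape.1 w

theorem comm (u v : BB ℝ) : M u v = M v u := bl_ext fun w => by
  rw [h.sa u, bl_comm, h.sa v, bl_comm u]
  exact (h.flip.sa w u v).trans (bl_comm _ _)

theorem transport {c₂ c₃ f₁ f₂ : ℝ} (s : Sh t0 (M a0) 0 c₂ c₃ f₁ f₂) {y : GG} (hy : IX y) :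
    Sh y (M (av y)) 0 c₂ c₃ f₁ f₂ := fun v => by
  obtain ⟨g, rfl⟩ := hy.ex
  obtain ⟨v, rfl⟩ := g.1.surjective v
  obtain ⟨k, e⟩ := s v
  refine ⟨k, ?_⟩
  have : (cj g t0).1 (g.1 v) = g.1 (t0.1 v) := by
    change g.1 (t0.1 (g.1.symm (g.1 _))) = _
    rw [LinearEquiv.symm_apply_apply]
  rw [ix_t0.av_cj, h.map, e, this, Aut_bl, bl_one_fix]
  simp only [zero_smul, map_add, map_smul, g.2.1, map_zero]

theorem pair {c₂ c₃ f₁ f₂ : ℝ} (s : Sh t0 (M a0) 0 c₂ c₃ f₁ f₂) {y : GG} (hy : IX y) :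
    c₂ + c₃ * FF y (t0 * y * t0) + (f₁ * FF t0 y + f₂) * FF t0 y =
      (c₂ + c₃) * FF t0 y + (f₁ * FF t0 y + f₂) := by
  obtain ⟨k, e⟩ := s (av y)
  obtain ⟨l, f⟩ := h.transport s hy a0
  rw [h.comm, f] at e
  have e1 := congrArg (bl one) e
  have e2 := congrArg (bl (av y)) e
  have o : bl one (av y) = 1 := (bl_comm _ _).trans hy.ax.one
  simp only [zero_smul, zero_add, map_add, map_smul, smul_eq_mul, bl_one_fix, o, bl_one_a0, bl_one_one,
    hy.ax.one, hy.ax.norm, hy.ax.B_map, bl_comm (av y) a0] at e1 e2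
  rw [FF, FF, ix_t0.av_tri hy]
  linarith

theorem zero {c₂ c₃ f₁ f₂ : ℝ} (s : Sh t0 (M a0) 0 c₂ c₃ f₁ f₂) : M = 0 := by
  have k : ∀ {y : GG}, t0 * y = y * t0 → t0 * y * t0 = y := fun e => by
    rw [e, mul_assoc, t0_sq, mul_one]
  have h3 := ix_t0.mul_of_inQ (inQ_z.2 t0_mem)
  have p1 := h.pair s h3
  rw [k (by rw [es_QQ.central _ t0_mem, ← mul_assoc, es_QQ.central _ t0_mem]), h3.FF_self,
    kind_Z ix_t0 h3 (by rw [← mul_assoc, t0_sq, one_mul]; exact iz_z)] at p1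
  obtain ⟨x, hx⟩ := sys_top.exists_D ix_t0
  have p2 := h.pair s hx.1
  rw [k (InD.comm ix_t0 hx), hx.1.FF_self, InD.FF ix_t0 hx] at p2
  obtain rfl : f₂ = c₂ + c₃ := by linarith
  obtain rfl : f₁ = 0 := by linarith
  obtain ⟨u, hu⟩ := exists_odd r0
  have p3 := h.pair s (ix_qa 0 u)
  obtain rfl : c₃ = 0 := by_contra fun h0 => hu (qa_comm.1 (by
    have : FF (qa 0 u.1) (t0 * qa 0 u.1 * t0) = 1 := mul_left_cancel₀ h0 (by linarith)
    have := eq_of_FF (ix_qa 0 u) (ix_t0.tri (ix_qa 0 u)) this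
    change t0 * _ = _ * t0
    conv_rhs => rw [this, mul_assoc, t0_sq, mul_one]))
  obtain ⟨l, e⟩ := s one
  have e1 := congrArg (bl one) e
  have e2 := congrArg (bl a0) e
  simp only [h.right, zero_smul, zero_add, map_add, map_smul, smul_eq_mul, bl_one_a0, bl_one_one,
    ix_t0.ax.one, ix_t0.ax.norm, map_zero] at e1 e2
  obtain rfl : c₂ = 0 := by linarith
  refine LinearMap.ext (span_ax (LinearMap.ker M) (fun c w hw => LinearMap.ext fun v => ?_)
    (LinearMap.ext h.left) (LinearMap.ext fun v => ?_))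
  · obtain ⟨v, rfl⟩ := c.1.surjective v
    rw [h.map, show M w = 0 from hw]; simp
  · obtain ⟨l, e⟩ := s v
    have e1 := h.out a0 v
    simp only [zero_smul, zero_add, zero_mul] at e
    rw [e, map_smul, bl_one_one, smul_eq_mul] at e1
    rw [e, show l = 0 by linarith, zero_smul, LinearMap.zero_apply]

end Eqv

/-- the product -/
noncomputable def M0 : BB ℝ →ₗ[ℝ] BB ℝ →ₗ[ℝ] BB ℝ := (gmul.compl₁₂ P1 P1).compr₂ P1

theorem M0_apply (u v : BB ℝ) : M0 u v = P1 (gmul (P1 u) (P1 v)) := rfl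

theorem eqv_M0 : Eqv M0 where
  map c u v := by simp only [M0_apply, P1_comm, ← Aut_gmul]
  left v := by simp [M0_apply, P1_one]
  right v := by simp [M0_apply, P1_one]
  out _ _ := bl_one_P1 _

theorem M0_ne : M0 a0 a0 ≠ 0 := fun e => by
  have := congrArg (bl a0) e
  simp only [M0_apply, P1_apply, map_sub, map_smul, LinearMap.sub_apply, LinearMap.smul_apply,
    ix_t0.ax.idem, gmul_one, amb.comm a0 one, ix_t0.ax.norm, ix_t0.ax.one, bl_one_a0, bl_one_one,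
    smul_eq_mul, map_zero] at this
  norm_num at this

theorem Eqv.uniq {M : BB ℝ →ₗ[ℝ] BB ℝ →ₗ[ℝ] BB ℝ} (h : Eqv M) : ∃ c : ℝ, M = c • M0 := by
  obtain ⟨c₁, c₂, c₃, f₁, f₂, s⟩ := h.shape.2
  suffices k : M + (-c₁) • M0 = 0 from ⟨c₁, LinearMap.ext fun u => LinearMap.ext fun v => by
    have := congr($k u v)
    simp only [LinearMap.add_apply, LinearMap.smul_apply, LinearMap.zero_apply] at this ⊢
    linear_combination (norm := module) this⟩
  refine Eqv.zero (c₂ := c₂ + c₁ / 48) (c₃ := c₃) (f₁ := f₁) (f₂ := f₂ + c₁ / 48)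
    ⟨fun c u v => by simp [h.map, eqv_M0.map], fun v => by simp [h.left, eqv_M0.left],
      fun v => by simp [h.right, eqv_M0.right], fun u v => by simp [h.out, eqv_M0.out]⟩ fun v => ?_
  obtain ⟨k, e⟩ := s v
  refine ⟨k - c₁ * (48⁻¹ * 48⁻¹ * bl one v) + c₁ * (48⁻¹ * bl one (gmul (P1 a0) (P1 v))), ?_⟩
  rw [LinearMap.add_apply, LinearMap.add_apply, LinearMap.smul_apply, LinearMap.smul_apply, e, M0_apply,
    P1_apply]
  generalize bl one (gmul (P1 a0) (P1 v)) = m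
  simp only [P1_apply, map_sub, map_smul, LinearMap.sub_apply, LinearMap.smul_apply, gmul_one,
    amb.comm a0 one, bl_one_a0]
  module

theorem exists_coord : ∃ (j : (Fin 196883 → ℝ) →ₗ[ℝ] BB ℝ) (p : BB ℝ →ₗ[ℝ] (Fin 196883 → ℝ)),
    (∀ v, p (j v) = v) ∧ ∀ w, j (p w) = P1 w := by
  have := LinearMap.finrank_range_add_finrank_ker (bl one)
  rw [finrank_BB, LinearMap.range_eq_top.2 fun r => ⟨(r / 48) • one, by simp [bl_one_one]⟩,
    finrank_top, Module.finrank_self] at this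
  have _ := Module.Free.of_divisionRing ℝ (LinearMap.ker (bl one))
  let e : LinearMap.ker (bl one) ≃ₗ[ℝ] (Fin 196883 → ℝ) :=
    LinearEquiv.ofFinrankEq _ _ (by rw [Module.finrank_fin_fun]; omega)
  refine ⟨(LinearMap.ker (bl one)).subtype ∘ₗ e.symm.toLinearMap,
    e.toLinearMap ∘ₗ P1.codRestrict _ bl_one_P1, fun v => ?_, fun w => ?_⟩
  · exact (congrArg e (Subtype.ext (P1_of (e.symm v).2))).trans (e.apply_symm_apply v)
  · exact congrArg Subtype.val (e.symm_apply_apply _)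

theorem norton {G : Type*} [Group G] (ι : G ≃* GG) : ∃ ρ : Representation ℝ G (Fin 196883 → ℝ),
    Function.Injective ρ ∧ (∀ W : Submodule ℝ (Fin 196883 → ℝ), (∀ g, W.map (ρ g) ≤ W) → W = ⊥ ∨ W = ⊤) ∧
    (∃ B : LinearMap.BilinForm ℝ (Fin 196883 → ℝ), B ≠ 0 ∧ (∀ u v, B u v = B v u) ∧
      ∀ g u v, B (ρ g u) (ρ g v) = B u v) ∧
    ∃ m : (Fin 196883 → ℝ) →ₗ[ℝ] (Fin 196883 → ℝ) →ₗ[ℝ] (Fin 196883 → ℝ), m ≠ 0 ∧ (∀ u v, m u v = m v u) ∧
      (∀ g u v, m (ρ g u) (ρ g v) = ρ g (m u v)) ∧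
      ∀ m' : (Fin 196883 → ℝ) →ₗ[ℝ] (Fin 196883 → ℝ) →ₗ[ℝ] (Fin 196883 → ℝ),
        (∀ g u v, m' (ρ g u) (ρ g v) = ρ g (m' u v)) → ∃ c : ℝ, m' = c • m := by
  obtain ⟨j, p, h1, h2⟩ := exists_coord
  have h3 : ∀ v, P1 (j v) = j v := fun v => by rw [← h2, h1]
  have h4 : ∀ w, p (P1 w) = p w := fun w => by rw [← h2, h1]
  have h5 : ∀ v, bl one (j v) = 0 := fun v => h3 v ▸ bl_one_P1 _
  let ρ : Representation ℝ G (Fin 196883 → ℝ) :=
    { toFun := fun g => p ∘ₗ (ι g).1.toLinearMap ∘ₗ j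
      map_one' := LinearMap.ext fun v => by rw [map_one]; exact h1 v
      map_mul' := fun a b => LinearMap.ext fun v => by
        rw [map_mul]
        change p ((ι a).1 ((ι b).1 (j v))) = p ((ι a).1 (j (p ((ι b).1 (j v)))))
        rw [h2, P1_comm, h3] }
  have r1 : ∀ g v, j (ρ g v) = (ι g).1 (j v) := fun g v => (h2 _).trans ((P1_comm _ _).trans (by rw [h3]))
  have r2 : ∀ g w, ρ g (p w) = p ((ι g).1 w) := fun g w =>
    (congrArg (fun x => p ((ι g).1 x)) (h2 w)).trans (by rw [← P1_comm, h4])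
  have p1 : p one = 0 := by rw [← h4, P1_one, map_zero]
  refine ⟨ρ, (injective_iff_map_eq_one ρ).2 fun g hg => ι.injective (Subtype.ext (LinearEquiv.ext fun w => ?_)),
    fun W hW => ?_, ⟨bl.compl₁₂ j j, fun e => P1_a0 (amb.eq_zero ?_), fun u v => bl_comm _ _, fun g u v => ?_⟩,
    (M0.compl₁₂ j j).compr₂ p, fun e => M0_ne ?_, fun u v => congrArg p (eqv_M0.comm _ _),
    fun g u v => ?_, fun m' hm => ?_⟩
  · have := r1 g (p w)
    rw [hg, Module.End.one_apply, h2, P1_apply, map_sub, map_smul, (ι g).2.1, sub_left_inj] at this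
    rw [map_one]; exact this.symm
  · refine (irr (W.map j) ?_ ?_).imp (fun e => W.eq_bot_iff.2 fun v hv => ?_)
      fun e => eq_top_iff.2 fun v _ => ?_
    · rintro c _ ⟨v, hv, rfl⟩
      obtain ⟨g, rfl⟩ := ι.surjective c
      exact ⟨_, hW g ⟨v, hv, rfl⟩, r1 g v⟩
    · rintro _ ⟨v, -, rfl⟩; exact h5 v
    · rw [← h1 v, show j v = 0 from e.le ⟨v, hv, rfl⟩, map_zero]
    · obtain ⟨u, hu, f⟩ := e (j v)
      rwa [← h1 v, ← h3, ← f, h1]
  · rw [← h2]; exact congr($e (p a0) (p a0))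
  · exact (congrArg₂ (fun x y => bl x y) (r1 g u) (r1 g v)).trans (Aut_bl _ _ _)
  · have := congrArg j (congr($e (p a0) (p a0)))
    change j (p (M0 (j (p a0)) (j (p a0)))) = j 0 at this
    rwa [h2, h2, map_zero, P1_of (eqv_M0.out _ _), M0_apply, P1_of (bl_one_P1 _), ← M0_apply] at this
  · change p (M0 (j (ρ g u)) (j (ρ g v))) = ρ g (p (M0 (j u) (j v)))
    rw [r1, r1, eqv_M0.map, r2]
  · obtain ⟨c, e⟩ := Eqv.uniq (M := (m'.compl₁₂ p p).compr₂ j) ⟨fun c u v => by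
        obtain ⟨g, rfl⟩ := ι.surjective c
        change j (m' (p _) (p _)) = (ι g).1 (j (m' (p u) (p v)))
        rw [← r2, ← r2, hm, r1], fun v => by simp [p1], fun v => by simp [p1], fun u v => h5 _⟩
    refine ⟨c, LinearMap.ext fun u => LinearMap.ext fun v => ?_⟩
    have := congrArg p (congr($e (j u) (j v)))
    change p (j (m' (p (j u)) (p (j v)))) = p (c • M0 (j u) (j v)) at this
    rwa [h1, h1, h1, map_smul] at this

end H18.NP
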